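import Cfsg.Agent.H226.R2.Base
import Cfsg.Agent.H776.CY.Congr
import Cfsg.Agent.H710.Gow.PSUOne

/-!
# S4829, `p = 2`: `PSU(3, q)`, `q = 2 ^ n`, `q = 1 mod 3` (helper61)

The character `Ind λ` (`λ` of order three on the Borel subgroup) of degree `q ^ 3 + 1` is fixed by all automorphisms.
-/

set_option autoImplicit false
set_option linter.unusedSectionVars false
set_option linter.unusedVariables false

namespace Cfsg.Agent.H61.R2

open Matrix Cfsg Cfsg.Agent.LieRecognition Cfsg.Agent.LieRecognition.HermHeis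
  Cfsg.Agent.LieRecognition.PSUThreeSylow Cfsg.Agent.LieRecognition.RankOneAbstract
  Cfsg.Agent.SuzukiRankOne Cfsg.Agent.SuzukiRankOne.PSUModel Cfsg.Agent.AschCrit.PSUTorus
  Cfsg.Agent.H710.Cuspidal Cfsg.Agent.H710.UThree Cfsg.Agent.Characters.Core
  Cfsg.Agent.H710.GUThree Cfsg.Agent.H710.Gow.PSUTwo Cfsg.Agent.H636.Gow
  Cfsg.Agent.OddOrderCharacters.IndRes Cfsg.Agent.H226.R2 Cfsg.Agent.H770.CY
open scoped ComplexConjugate

universe u

/-- Sylow subgroups and automorphisms -/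
theorem exists_conj_aut {G : Type*} [Group G] [Finite G] {p : ℕ} [Fact p.Prime] (P : Sylow p G) (b : MulAut G) :
    ∃ s : G, ∀ x : G, x ∈ P ↔ s * b x * s⁻¹ ∈ P := by
  obtain ⟨s, hs⟩ := MulAction.exists_smul_eq G (b • P) P
  refine ⟨s, fun x => ?_⟩
  have h1 : s * b x * s⁻¹ ∈ P ↔ s * b x * s⁻¹ ∈ (s • b • P : Sylow p G) := by rw [hs]
  rw [h1]
  constructor
  · intro hx
    exact ⟨b x, ⟨x, hx, rfl⟩, rfl⟩
  · rintro ⟨y, ⟨z, hz, rfl⟩, h⟩
    have h2 : s * b z * s⁻¹ = s * b x * s⁻¹ := h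
    have h3 : b z = b x := mul_left_cancel (mul_right_cancel h2)
    rw [← b.injective h3]
    exact hz

section

variable {G : Type u} [Group G] [Fintype G] {H U : Subgroup G} {w : G}

/-- **A linear character of order three inverted by `w`, unique up to inversion.** -/
theorem ratInv_of_data (D : Data H U w) (heven : Even (Nat.card U)) (P : Sylow 2 G) (hP : (P : Subgroup G) = U)
    (lam : H →* ℂˣ) (h3 : ∀ b, lam b ^ 3 = 1)
    (hU : ∀ u : H, (u : G) ∈ U → lam u = 1)
    (hinv : ∀ (b : H) (hb : w⁻¹ * (b : G) * w ∈ H), lam ⟨w⁻¹ * (b : G) * w, hb⟩ = (lam b)⁻¹)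
    {b₀ : H} (hb₀ : w⁻¹ * (b₀ : G) * w ∈ H) (h0 : lam b₀ ≠ 1)
    (huniq : ∀ m : H →* ℂˣ, (∀ b, m b ^ 3 = 1) → (∀ u : H, (u : G) ∈ U → m u = 1) → m = 1 ∨ m = lam ∨ m = lam⁻¹) :
    RatInv G ⊤ := by
  classical
  have : Fintype H := Fintype.ofFinite _
  have h0i : lam b₀ ≠ (lam b₀)⁻¹ := by
    intro h
    apply h0
    have h4 : lam b₀ * lam b₀ = 1 := by
      nth_rewrite 2 [h]
      exact mul_inv_cancel _
    have h5 := h3 b₀
    rw [pow_succ, pow_two, h4, one_mul] at h5
    exact h5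
  -- the key fact
  have key : ∀ x : G, x ∉ H → ∀ (b : H) (hb : x⁻¹ * (b : G) * x ∈ H), lam ⟨x⁻¹ * (b : G) * x, hb⟩ = (lam b)⁻¹ := by
    intro x hx b hb
    obtain ⟨s, hs, hy⟩ := D.bruhat x hx
    set y : G := (s * w)⁻¹ * x with hydef
    have hxe : x = s * w * y := by rw [hydef]; group
    have hsH := D.le hs
    let s' : H := ⟨s, hsH⟩
    let y' : H := ⟨y, hy⟩
    have e1 : w⁻¹ * ((s'⁻¹ * b * s' : H) : G) * w = y * (x⁻¹ * (b : G) * x) * y⁻¹ := by
      change w⁻¹ * (s⁻¹ * (b : G) * s) * w = _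
      rw [hxe]; group
    have hm : w⁻¹ * ((s'⁻¹ * b * s' : H) : G) * w ∈ H := by
      rw [e1]
      exact H.mul_mem (H.mul_mem hy hb) (H.inv_mem hy)
    have e2 : (⟨x⁻¹ * (b : G) * x, hb⟩ : H) = y'⁻¹ * ⟨w⁻¹ * ((s'⁻¹ * b * s' : H) : G) * w, hm⟩ * y' := by
      apply Subtype.ext
      change x⁻¹ * (b : G) * x = y⁻¹ * (w⁻¹ * ((s'⁻¹ * b * s' : H) : G) * w) * y
      rw [e1]; group
    rw [e2, map_mul, map_mul, hinv, map_mul, map_mul, map_inv, map_inv]
    rw [mul_comm (lam y')⁻¹, inv_mul_cancel_right, mul_comm (lam s')⁻¹, inv_mul_cancel_right]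
  have hirr : ∀ m : H →* ℂˣ, (m = lam ∨ m = lam⁻¹) → IsIrrCharacter G (indFun H (fun t => (m t : ℂ))) := by
    intro m hm
    apply CharactersDeep.MackeyLinear.isIrrCharacter_indFun H m
    intro x hx
    obtain ⟨s, hs, hy⟩ := D.bruhat x hx
    set y : G := (s * w)⁻¹ * x with hydef
    have hxe : x = s * w * y := by rw [hydef]; group
    let s' : H := ⟨s, D.le hs⟩
    have e1 : x⁻¹ * ((s' * b₀ * s'⁻¹ : H) : G) * x = y⁻¹ * (w⁻¹ * (b₀ : G) * w) * y := by
      change x⁻¹ * (s * (b₀ : G) * s⁻¹) * x = _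
      rw [hxe]; group
    have hm' : x⁻¹ * ((s' * b₀ * s'⁻¹ : H) : G) * x ∈ H := by
      rw [e1]
      exact H.mul_mem (H.mul_mem (H.inv_mem hy) hb₀) hy
    refine ⟨s' * b₀ * s'⁻¹, hm', ?_⟩
    have hk := key x hx (s' * b₀ * s'⁻¹) hm'
    have e2 : lam (s' * b₀ * s'⁻¹) = lam b₀ := by
      rw [map_mul, map_mul, map_inv, mul_comm (lam s'), mul_inv_cancel_right]
    rw [e2] at hk
    rcases hm with rfl | rfl
    · rw [hk, e2]
      exact h0i
    · rw [MonoidHom.inv_apply, MonoidHom.inv_apply, hk, e2, inv_inv]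
      exact h0i.symm
  -- the two induced characters agree
  have heq : indFun H (fun t => (lam⁻¹ t : ℂˣ)) = indFun H (fun t => ((lam t : ℂˣ) : ℂ)) := by
    by_contra hne
    have h4 := classInner_irr_ne (hirr lam⁻¹ (Or.inr rfl)) (hirr lam (Or.inl rfl)) hne
    rw [Cfsg.Agent.OddOrderCharacters.Clifford.classInner_indFun_indFun] at h4
    have hc : (Nat.card H : ℂ)⁻¹ ≠ 0 := inv_ne_zero (Nat.cast_ne_zero.2 Nat.card_pos.ne')
    have h5 := (mul_eq_zero.1 ((mul_eq_zero.1 h4).resolve_left hc)).resolve_left hc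
    have hnat : ∀ x : G, ∃ n : ℕ, Cfsg.Agent.OddOrderCharacters.Clifford.twist H
        (fun t => (lam⁻¹ t : ℂˣ)) (fun t => ((lam t : ℂˣ) : ℂ)) x = n := fun x =>
      Cfsg.Agent.OddOrderCharacters.Clifford.twist_eq_nat H (Characters.Linear.isCharacter_hom _)
        (Characters.Linear.isCharacter_hom _) x
    choose n hn using hnat
    rw [Finset.sum_congr rfl fun x _ => hn x] at h5
    have h6 : ∑ x, n x = 0 := by exact_mod_cast h5
    have h7 : n w = 0 := Finset.sum_eq_zero_iff.1 h6 w (Finset.mem_univ w)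
    have h8 := hn w
    rw [h7, Cfsg.Agent.OddOrderCharacters.Clifford.twist_def] at h8
    have h9 : ∀ t : H, ((lam⁻¹ t : ℂˣ) : ℂ) * conj (extendByZero H (fun t => ((lam t : ℂˣ) : ℂ)) (w⁻¹ * t * w)) =
        if w⁻¹ * (t : G) * w ∈ H then 1 else 0 := by
      intro t
      split_ifs with ht
      · rw [extendByZero_of_mem H _ ht, hinv t ht]
        exact CharactersDeep.MackeyLinear.mul_conj_hom lam⁻¹ t
      · rw [extendByZero_of_notMem H _ ht, map_zero, mul_zero]
    rw [Finset.sum_congr rfl fun t _ => h9 t, Finset.sum_boole] at h8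
    have h10 : (Finset.univ.filter (fun t : H => w⁻¹ * (t : G) * w ∈ H)).card = 0 := by exact_mod_cast h8
    rw [Finset.card_eq_zero] at h10
    have h11 : (1 : H) ∈ Finset.univ.filter (fun t : H => w⁻¹ * (t : G) * w ∈ H) := by
      rw [Finset.mem_filter]
      refine ⟨Finset.mem_univ _, ?_⟩
      rw [OneMemClass.coe_one, mul_one, inv_mul_cancel]
      exact H.one_mem
    rw [h10] at h11
    exact absurd h11 (Finset.notMem_empty _)
  have hdeg : indFun H (fun t => ((lam t : ℂˣ) : ℂ)) 1 = ((Nat.card U + 1 : ℕ) : ℂ) := by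
    rw [indFun_apply_one, D.index, map_one, Units.val_one, mul_one]
  have hUpos : 0 < Nat.card U := Nat.card_pos
  refine ⟨indFun H (fun t => ((lam t : ℂˣ) : ℂ)), hirr lam (Or.inl rfl), ?_, ⟨Nat.card U + 1, heven.add_one, hdeg⟩,
    fun g => ?_, fun b _ => ?_⟩
  · intro h1
    rw [h1, Pi.one_apply] at hdeg
    have : (1 : ℕ) = Nat.card U + 1 := by exact_mod_cast hdeg
    omega
  · apply Characters.GaloisBasic.exists_rat_of_forall_ringEquiv
    · exact (Characters.GaloisBasic.isIntegral_apply (isIrr_isCharacter (hirr lam (Or.inl rfl))) g).tower_top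
    · intro τ
      have hext : ∀ (m : H → ℂ) (y : G), (∀ b, τ (lam b : ℂˣ) = m b) →
          τ (extendByZero H (fun t => ((lam t : ℂˣ) : ℂ)) y) = extendByZero H m y := by
        intro m y hm
        by_cases hy : y ∈ H
        · rw [extendByZero_of_mem H _ hy, extendByZero_of_mem H _ hy, hm]
        · rw [extendByZero_of_notMem H _ hy, extendByZero_of_notMem H _ hy, map_zero]
      have hind : ∀ (m : H → ℂ), (∀ b, τ (lam b : ℂˣ) = m b) →
          τ (indFun H (fun t => ((lam t : ℂˣ) : ℂ)) g) = indFun H m g := by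
        intro m hm
        rw [S0150.indFun_apply, S0150.indFun_apply, map_mul, map_inv₀, map_natCast, map_sum]
        congr 1
        exact Finset.sum_congr rfl fun x _ => hext m _ hm
      rcases H710.Gow.PSUOne.galois_cases lam h3 h0 τ with h | h
      · exact hind _ h
      · rw [hind _ h]
        exact congrFun heq g
  · -- invariance
    have hUbot : U ≠ ⊥ := by
      intro h
      rw [h, Subgroup.card_bot] at heven
      exact absurd heven (by decide)
    have hN := D.normalizer_eq hUbot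
    obtain ⟨s, hs⟩ := exists_conj_aut P b
    have hs' : ∀ x : G, x ∈ U ↔ s * b x * s⁻¹ ∈ U := by
      intro x
      rw [← hP]
      exact hs x
    set c : MulAut G := MulAut.conj s * b with hc
    have hcx : ∀ x, c x = s * b x * s⁻¹ := fun x => rfl
    have hcU : ∀ x : G, x ∈ U ↔ c x ∈ U := hs'
    have hcH : ∀ x : G, x ∈ H ↔ c x ∈ H := by
      intro x
      rw [← hN, Subgroup.mem_normalizer_iff, Subgroup.mem_normalizer_iff]
      constructor
      · intro h y
        obtain ⟨z, rfl⟩ := c.surjective y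
        change c z ∈ U ↔ c x * c z * (c x)⁻¹ ∈ U
        rw [← map_mul, ← map_inv, ← map_mul, ← hcU, ← hcU]
        exact h z
      · intro h z
        have h1 := h (c z)
        change c z ∈ U ↔ c x * c z * (c x)⁻¹ ∈ U at h1
        rw [← map_mul, ← map_inv, ← map_mul, ← hcU, ← hcU] at h1
        exact h1
    -- the restriction of `c`
    let cH : H →* H :=
      { toFun := fun t => ⟨c t, (hcH t).1 t.2⟩
        map_one' := Subtype.ext (map_one c)
        map_mul' := fun x y => Subtype.ext (map_mul c _ _) }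
    have hcHs : Function.Surjective cH := by
      rintro ⟨y, hy⟩
      obtain ⟨z, rfl⟩ := c.surjective y
      exact ⟨⟨z, (hcH z).2 hy⟩, rfl⟩
    have hm : lam.comp cH = lam ∨ lam.comp cH = lam⁻¹ := by
      rcases huniq (lam.comp cH) (fun b => h3 _) (fun u hu => hU _ ((hcU _).1 hu)) with h | h
      · exfalso
        obtain ⟨t, ht⟩ := hcHs b₀
        apply h0
        rw [← ht]
        exact DFunLike.congr_fun h t
      · exact h
    have hInd : ∀ x : G, indFun H (fun t => ((lam t : ℂˣ) : ℂ)) (c x) =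
        indFun H (fun t => ((lam.comp cH t : ℂˣ) : ℂ)) x := by
      intro x
      rw [S0150.indFun_apply, S0150.indFun_apply]
      congr 1
      symm
      refine Fintype.sum_equiv c.toEquiv _ _ fun y => ?_
      change extendByZero H (fun t => ((lam.comp cH t : ℂˣ) : ℂ)) (y⁻¹ * x * y) =
        extendByZero H (fun t => ((lam t : ℂˣ) : ℂ)) ((c y)⁻¹ * c x * c y)
      have e : (c y)⁻¹ * c x * c y = c (y⁻¹ * x * y) := by
        rw [map_mul, map_mul, map_inv]
      rw [e]
      by_cases hy : y⁻¹ * x * y ∈ H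
      · rw [extendByZero_of_mem H _ hy, extendByZero_of_mem H _ ((hcH _).1 hy)]
        rfl
      · rw [extendByZero_of_notMem H _ hy, extendByZero_of_notMem H _ (fun h => hy ((hcH _).2 h))]
    intro x
    have e1 : indFun H (fun t => ((lam t : ℂˣ) : ℂ)) (b x) = indFun H (fun t => ((lam t : ℂˣ) : ℂ)) (c x) := by
      rw [hcx]
      exact (isClassFunction_indFun _ _ (b x) s).symm
    rw [e1, hInd]
    rcases hm with h | h
    · rw [h]
    · rw [h]
      exact congrFun heq x

end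

/-! ### the unitary groups -/

section PSU

open Cfsg.Agent.H710.Gow.PSUOne

variable {F : Type u} [Field F] [CharP F 2] {σ : F →+* F} [hσ : Fact (∀ x, σ (σ x) = x)] [Finite F] {n : ℕ}

theorem row2_one (hn : 1 ≤ n) (hs : ∀ x, σ x = x ^ (2 ^ n)) (hF : Nat.card F = (2 ^ n) ^ 2)
    (hmod : 2 ^ n % 3 = 1) : Row2 (Cfsg.PSU 3 F (2 ^ n)) := by
  classical
  have hq : 1 < 2 ^ n := Nat.one_lt_two_pow (by omega)
  have := Fintype.ofFinite (SUJ σ)
  have := Fintype.ofFinite (Heis σ)
  obtain ⟨π, hπ, hker⟩ := exists_pi (F := F) (σ := σ) (by omega) hs hF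
  have hinj : Function.Injective π := (injective_iff_map_eq_one π).2 fun g hg =>
    eq_one_of_center hn hs hF hmod ((hker g).1 hg)
  have hrow : Row2 (SUJ σ) := by
    obtain ⟨r, hr⟩ : ∃ r, 2 ^ n = 3 * r + 1 := ⟨2 ^ n / 3, by omega⟩
    obtain ⟨f, hf3, x, hx⟩ := exists_three (F := F) (by
      rw [Nat.card_units, hF, hr]
      refine ⟨r * (3 * r + 2), ?_⟩
      have : (3 * r + 1) ^ 2 = 3 * (r * (3 * r + 2)) + 1 := by ring
      omega)
    let lam : borel σ →* ℂˣ := f.comp (ent σ).toHomUnits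
    have hlam : ∀ (b : borel σ) (u : Fˣ), ent σ b = u → lam b = f u := by
      intro b u hu
      change f ((ent σ).toHomUnits b) = f u
      congr 1
      apply Units.ext
      rw [MonoidHom.coe_toHomUnits, hu]
    have hbw : ∀ (α : F) (h0 : α ≠ 0) (hw : (σ α)⁻¹ ≠ 0),
        (wel σ)⁻¹ * tel σ α h0 * wel σ = tel σ (σ α)⁻¹ hw := by
      intro α h0 hw
      apply Subtype.ext
      apply Subtype.ext
      rw [wel_inv, coe_mul_SUJ, coe_mul_SUJ, wel_val, tel_val, tel_val]
      ext i j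
      fin_cases i <;> fin_cases j <;>
        simp [Jm, Matrix.mul_apply, Fin.sum_univ_three, HermHeis.sig, div_eq_mul_inv, mul_comm]
    have hval : ∀ (α : F) (h0 : α ≠ 0) (hb : tel σ α h0 ∈ borel σ), lam ⟨tel σ α h0, hb⟩ = f (Units.mk0 α h0) :=
      fun α h0 hb => hlam _ _ (by rw [ent_tel]; rfl)
    have hcU : Nat.card (emb σ).range = Nat.card (Heis σ) :=
      (Nat.card_congr (MonoidHom.ofInjective (emb_injective (σ := σ))).toEquiv).symm
    have hU : Even (Nat.card (emb σ).range) := by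
      rw [hcU, card_heis hq hs hF, ← pow_mul]
      exact even_two.pow_of_ne_zero (by omega)
    have hx0 : (x : F) ≠ 0 := x.ne_zero
    have h2 : IsPGroup 2 (Heis σ) :=
      IsPGroup.of_card (n := n * 3) (by rw [card_heis hq hs hF, ← pow_mul])
    obtain ⟨x₀, hx₀⟩ := HermHeis.exists_heis_a (σ := σ) hq hs hF 1
    have hxx : ∃ x : Heis σ, x.a ≠ 0 := ⟨x₀, by rw [hx₀]; exact one_ne_zero⟩
    obtain ⟨P, hP⟩ := exists_sylow hxx h2
    have hlamU : ∀ u : borel σ, (u : SUJ σ) ∈ (emb σ).range → lam u = 1 := by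
      rintro ⟨_, hb⟩ ⟨y, rfl⟩
      rw [hlam ⟨emb σ y, hb⟩ 1 (by rw [ent_emb, Units.val_one]), map_one]
    refine row2_of_odd_index (Γ := ⊤) (by rw [Subgroup.index_top]; exact odd_one) (ratInv_of_data data_SUJ hU P hP lam
      (fun b => hf3 _) hlamU ?_ (b₀ := ⟨tel σ (x : F) hx0, tel_mem_borel _ _⟩) ?_ ?_ ?_)
    · rintro ⟨b, hb'⟩ hb
      have ht : b ∈ torus σ := mem_torus.2 ⟨hb', hb⟩
      obtain ⟨α, h0, rfl⟩ := eq_tel ht
      have h1 : σ α ≠ 0 := (map_ne_zero σ).mpr h0
      have e : (⟨(wel σ)⁻¹ * tel σ α h0 * wel σ, hb⟩ : borel σ) =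
          ⟨tel σ (σ α)⁻¹ (inv_ne_zero h1), tel_mem_borel _ _⟩ := Subtype.ext (hbw α h0 (inv_ne_zero h1))
      change lam ⟨(wel σ)⁻¹ * tel σ α h0 * wel σ, hb⟩ = _
      rw [e, hval, hval]
      have e2 : Units.mk0 (σ α)⁻¹ (inv_ne_zero h1) = ((Units.mk0 α h0) ^ (3 * r + 1))⁻¹ := by
        apply Units.ext
        rw [Units.val_mk0, Units.val_inv_eq_inv_val, Units.val_pow_eq_pow_val, Units.val_mk0, hs, hr]
      rw [e2, map_inv, map_pow, pow_succ, pow_mul, hf3, one_pow, one_mul]
    · change (wel σ)⁻¹ * tel σ (x : F) hx0 * wel σ ∈ borel σ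
      rw [hbw _ _ (inv_ne_zero ((map_ne_zero σ).mpr hx0))]
      exact tel_mem_borel _ _
    · rw [hval]
      have : Units.mk0 (x : F) hx0 = x := Units.ext rfl
      rw [this]
      exact hx
    · -- uniqueness
      intro m hm3 hmU
      obtain ⟨g, hg⟩ := IsCyclic.exists_generator (α := Fˣ)
      let bg : borel σ := ⟨tel σ (g : F) g.ne_zero, tel_mem_borel _ _⟩
      have hdet : ∀ k : borel σ →* ℂˣ, (∀ u : borel σ, (u : SUJ σ) ∈ (emb σ).range → k u = 1) →
          ∀ b : borel σ, ∃ z : ℤ, b = b ∧ (ent σ).toHomUnits b = g ^ z ∧ k b = k bg ^ z := by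
        intro k hk b
        obtain ⟨z, hz⟩ := Subgroup.mem_zpowers_iff.1 (hg ((ent σ).toHomUnits b))
        refine ⟨z, rfl, hz.symm, ?_⟩
        have e1 : (ent σ).toHomUnits bg = g := by
          apply Units.ext
          rw [MonoidHom.coe_toHomUnits]
          exact ent_tel _ _ _
        have e2 : (ent σ).toHomUnits ((bg ^ z)⁻¹ * b) = 1 := by
          rw [map_mul, map_inv, map_zpow, e1, hz, inv_mul_cancel]
        have e3 : ent σ ((bg ^ z)⁻¹ * b) = 1 := by
          have := congrArg (fun u : Fˣ => (u : F)) e2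
          rwa [MonoidHom.coe_toHomUnits, Units.val_one] at this
        have e4 : (((bg ^ z)⁻¹ * b : borel σ) : SUJ σ) ∈ (emb σ).range := by
          have h5 := mem_borel.1 ((bg ^ z)⁻¹ * b).2
          exact mem_range_of_col e3 h5.1 h5.2
        have e5 := hk _ e4
        rw [map_mul, map_inv, map_zpow, inv_mul_eq_one] at e5
        exact e5.symm
      have hlg : lam bg ≠ 1 := by
        intro h
        apply hx
        obtain ⟨z, -, hz, hz1⟩ := hdet lam hlamU ⟨tel σ (x : F) hx0, tel_mem_borel _ _⟩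
        rw [h, _root_.one_zpow, hval] at hz1
        have : Units.mk0 (x : F) hx0 = x := Units.ext rfl
        rwa [this] at hz1
      have hcase : m bg = 1 ∨ m bg = lam bg ∨ m bg = (lam bg)⁻¹ := by
        have c1 : ((m bg : ℂˣ) : ℂ) ^ 3 = 1 := by
          rw [← Units.val_pow_eq_pow_val, hm3, Units.val_one]
        have c2 : ((lam bg : ℂˣ) : ℂ) ^ 3 = 1 := by
          rw [← Units.val_pow_eq_pow_val, show lam bg ^ 3 = 1 from hf3 _, Units.val_one]
        rcases cases_cube c1 c2 (fun h => hlg (Units.ext h)) with h | h | h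
        · exact Or.inl (Units.ext h)
        · exact Or.inr (Or.inl (Units.ext h))
        · refine Or.inr (Or.inr (Units.ext ?_))
          rw [h, Units.val_inv_eq_inv_val]
      rcases hcase with h | h | h
      · left
        ext b
        obtain ⟨z, -, hz, hz1⟩ := hdet m hmU b
        rw [hz1, h, _root_.one_zpow]
        rfl
      · right; left
        ext b
        obtain ⟨z, -, hz, hz1⟩ := hdet m hmU b
        obtain ⟨z', -, hz', hz1'⟩ := hdet (m * lam⁻¹) (fun u hu => by
          rw [MonoidHom.mul_apply, MonoidHom.inv_apply, hmU u hu, hlamU u hu, inv_one, one_mul]) b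
        rw [MonoidHom.mul_apply, MonoidHom.mul_apply, MonoidHom.inv_apply, MonoidHom.inv_apply, h, mul_inv_cancel,
          _root_.one_zpow, mul_inv_eq_one] at hz1'
        rw [hz1']
      · right; right
        ext b
        obtain ⟨z', -, hz', hz1'⟩ := hdet (m * lam) (fun u hu => by
          rw [MonoidHom.mul_apply, hmU u hu, hlamU u hu, one_mul]) b
        rw [MonoidHom.mul_apply, MonoidHom.mul_apply, h, inv_mul_cancel,
          _root_.one_zpow, mul_eq_one_iff_eq_inv] at hz1'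
        rw [hz1', MonoidHom.inv_apply]
  exact H776.CY.Row2.congr (MulEquiv.ofBijective π ⟨hinj, hπ⟩).symm hrow

end PSU

end Cfsg.Agent.H61.R2
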