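import Cfsg.Agent.H61.R2.PsuOne

/-!
# S4829, `p = 2`: `PSU(3, q)`, `q = 2 ^ n`, `q = 2 mod 3` (helper61)

The three characters of degree `(q - 1) (q ^ 2 - q + 1) / 3` are permuted by the automorphisms.
-/

set_option autoImplicit false
set_option linter.unusedSectionVars false
set_option linter.unusedVariables false

namespace Cfsg.Agent.H61.R2

open Matrix Cfsg Cfsg.Agent.LieRecognition Cfsg.Agent.LieRecognition.HermHeis
  Cfsg.Agent.LieRecognition.PSUThreeSylow Cfsg.Agent.LieRecognition.RankOneAbstract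
  Cfsg.Agent.SuzukiRankOne Cfsg.Agent.SuzukiRankOne.PSUModel Cfsg.Agent.AschCrit.PSUTorus
  Cfsg.Agent.H710.Cuspidal Cfsg.Agent.H664.R1.U3 Cfsg.Agent.H710.UThree Cfsg.Agent.Characters.Core
  Cfsg.Agent.H710.GUThree Cfsg.Agent.H710.Gow.HeisPar Cfsg.Agent.H710.Gow.PSUTwo
  Cfsg.Agent.H226.R2 Cfsg.Agent.H770.CY Cfsg.Agent.OddOrderCharacters Cfsg.Agent.OddOrderCharacters.IndRes
open scoped ComplexConjugate

universe u

/-! ### automorphisms and a Sylow subgroup -/

/-- An automorphism of `S` induces, up to inner automorphisms, an automorphism of a Sylow subgroup. -/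
theorem exists_beta {S A : Type*} [Group S] [Finite S] [Group A] [Finite A] {i : A →* S} (hi : Function.Injective i)
    {p : ℕ} [Fact p.Prime] (P : Sylow p S) (hP : (P : Subgroup S) = i.range) (b : MulAut S) :
    ∃ β : A ≃* A, ∀ χ : S → ℂ, IsClassFunction S χ → ∀ a, χ (b (i a)) = χ (i (β a)) := by
  obtain ⟨s, hs⟩ := exists_conj_aut P b
  have h1 : ∀ a : A, ∃ a' : A, i a' = s * b (i a) * s⁻¹ := by
    intro a
    have h2 : i a ∈ P := by
      change i a ∈ (P : Subgroup S)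
      rw [hP]
      exact ⟨a, rfl⟩
    have h3 : s * b (i a) * s⁻¹ ∈ (P : Subgroup S) := (hs _).1 h2
    rw [hP] at h3
    exact h3
  choose β hβ using h1
  have hmul : ∀ x y, β (x * y) = β x * β y := by
    intro x y
    apply hi
    rw [hβ, map_mul, map_mul, map_mul, hβ, hβ]
    group
  have hinj : Function.Injective β := by
    intro x y h
    apply hi
    apply b.injective
    have h4 := congrArg i h
    rw [hβ, hβ] at h4
    exact mul_left_cancel (mul_right_cancel h4)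
  refine ⟨MulEquiv.ofBijective (MonoidHom.mk' β hmul) (Finite.injective_iff_bijective.1 hinj), fun χ hχ a => ?_⟩
  change χ (b (i a)) = χ (i (β a))
  rw [hβ, hχ]

/-! ### uniqueness in a pair -/

section pair

variable {G A : Type*} [Group G] [Fintype G] [Group A] [Fintype A] {H : Subgroup G} {w : G}
  {i : A →* G}

open Cfsg.Agent.H710.TIPair in
theorem pair_unique (hi : Function.Injective i) (D : Data H i.range w) {ψ₁ ψ₂ : A →* ℂˣ}
    (h1 : ∀ x ∈ H, ∀ f : A →* A, (∀ a, x⁻¹ * i a * x = i (f a)) → ψ₁.comp f = ψ₁ → x ∈ i.range)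
    (h2 : ∀ x ∈ H, ∀ f : A →* A, (∀ a, x⁻¹ * i a * x = i (f a)) → ψ₂.comp f = ψ₂ → x ∈ i.range)
    (h12 : ∀ x ∈ H, ∀ f : A →* A, (∀ a, x⁻¹ * i a * x = i (f a)) → ψ₁.comp f ≠ ψ₂)
    {χ χ' : G → ℂ} (hχ : IsIrrCharacter G χ) (hχ' : IsIrrCharacter G χ')
    (e : classInner (χ ∘ i) (fun a => (ψ₁ a : ℂ)) = classInner (χ ∘ i) (fun a => (ψ₂ a : ℂ)) + 1)
    (e' : classInner (χ' ∘ i) (fun a => (ψ₁ a : ℂ)) = classInner (χ' ∘ i) (fun a => (ψ₂ a : ℂ)) + 1) : χ = χ' := by
  set θ : A → ℂ := fun a => (ψ₁ a : ℂ) - ψ₂ a with hθ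
  have hgen : IsGeneralizedCharacter G (indFun i.range (fn hi θ)) := by
    apply isGeneralizedCharacter_indFun
    refine ⟨fn hi (fun a => (ψ₁ a : ℂ)), fn hi (fun a => (ψ₂ a : ℂ)), ?_, ?_, rfl⟩
    · exact Characters.Linear.isCharacter_hom (ψ₁.comp (eqv hi).symm.toMonoidHom)
    · exact Characters.Linear.isCharacter_hom (ψ₂.comp (eqv hi).symm.toMonoidHom)
  have hone : indFun i.range (fn hi θ) 1 = 0 := by
    rw [indFun_apply_one, fn, map_one]
    simp [hθ]
  obtain ⟨μ, ν, hμ, hν, hne, he⟩ := NormTwo.exists_sub_of_norm_two hgen (norm_eq hi D h1 h2 h12) hone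
  have key : ∀ {ρ : G → ℂ}, IsIrrCharacter G ρ →
      classInner (ρ ∘ i) (fun a => (ψ₁ a : ℂ)) = classInner (ρ ∘ i) (fun a => (ψ₂ a : ℂ)) + 1 → ρ = μ := by
    intro ρ hρ e0
    have e1 := inner_ind hi θ (χ := ρ) (isIrr_isClassFunction hρ)
    have e2 : classInner (ρ ∘ i) θ = classInner (ρ ∘ i) (fun a => (ψ₁ a : ℂ)) -
        classInner (ρ ∘ i) (fun a => (ψ₂ a : ℂ)) := by
      have e3 : θ = (fun a => (ψ₁ a : ℂ)) - (fun a => (ψ₂ a : ℂ)) := rfl
      rw [e3, classInner_sub_right]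
    rw [he, classInner_sub_right, e2, e0] at e1
    by_contra hcon
    rw [classInner_irr_ne hρ hμ hcon] at e1
    rcases eq_or_ne ρ ν with h5 | h5
    · rw [h5, classInner_irr_self hν] at e1
      norm_num at e1
    · rw [classInner_irr_ne hρ hν h5] at e1
      norm_num at e1
  rw [key hχ e, key hχ' e']

end pair

/-! ### the sum of the multiplicities -/

theorem sum_mult {F : Type*} [Field F] [Fintype F] {M : F → ℕ} {γ : F} (hγ0 : γ ≠ 0)
    (hcube : ∀ c β : F, β ≠ 0 → M (c * β ^ 3) = M c)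
    (hcov : ∀ u : F, u ≠ 0 → ∃ β : F, β ≠ 0 ∧ (u = β ^ 3 ∨ u = γ * β ^ 3 ∨ u = γ ^ 2 * β ^ 3)) :
    3 * ∑ c, M c = 3 * M 0 + (Fintype.card F - 1) * (M 1 + M γ + M (γ ^ 2)) := by
  classical
  have hsh : ∀ δ : F, δ ≠ 0 → ∑ c, M (c * δ) = ∑ c, M c := fun δ hδ =>
    Fintype.sum_equiv (Equiv.mulRight₀ δ hδ) _ _ fun c => rfl
  have h1 : 3 * ∑ c, M c = ∑ c, (M c + M (c * γ) + M (c * γ ^ 2)) := by
    rw [Finset.sum_add_distrib, Finset.sum_add_distrib, hsh γ hγ0, hsh (γ ^ 2) (pow_ne_zero 2 hγ0)]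
    ring
  have h2 : ∀ c : F, M c + M (c * γ) + M (c * γ ^ 2) = if c = 0 then 3 * M 0 else M 1 + M γ + M (γ ^ 2) := by
    intro c
    split_ifs with hc
    · rw [hc, zero_mul, zero_mul]
      ring
    · obtain ⟨β, hβ, h | h | h⟩ := hcov c hc
      · have e1 : M c = M 1 := by rw [h, ← hcube 1 β hβ, one_mul]
        have e2 : M (c * γ) = M γ := by rw [h, mul_comm, hcube γ β hβ]
        have e3 : M (c * γ ^ 2) = M (γ ^ 2) := by rw [h, mul_comm, hcube (γ ^ 2) β hβ]
        omega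
      · have e1 : M c = M γ := by rw [h, hcube γ β hβ]
        have e2 : M (c * γ) = M (γ ^ 2) := by
          rw [h, ← hcube (γ ^ 2) β hβ]
          congr 1
          ring
        have e3 : M (c * γ ^ 2) = M 1 := by
          rw [h, ← hcube 1 (γ * β) (mul_ne_zero hγ0 hβ)]
          congr 1
          ring
        omega
      · have e1 : M c = M (γ ^ 2) := by rw [h, hcube (γ ^ 2) β hβ]
        have e2 : M (c * γ) = M 1 := by
          rw [h, ← hcube 1 (γ * β) (mul_ne_zero hγ0 hβ)]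
          congr 1
          ring
        have e3 : M (c * γ ^ 2) = M γ := by
          rw [h, ← hcube γ (γ * β) (mul_ne_zero hγ0 hβ)]
          congr 1
          ring
        omega
  rw [h1, Finset.sum_congr rfl fun c _ => h2 c, ← Finset.add_sum_erase _ _ (Finset.mem_univ (0 : F)), if_pos rfl,
    Finset.sum_congr rfl fun c hc => if_neg (Finset.ne_of_mem_erase hc), Finset.sum_const,
    Finset.card_erase_of_mem (Finset.mem_univ _), Finset.card_univ, smul_eq_mul]

section PSU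

variable {F : Type u} [Field F] [CharP F 2] {σ : F →+* F} [hσ : Fact (∀ x, σ (σ x) = x)]

/-- automorphisms of the radical permute the linear characters -/
theorem exists_perm [Finite F] [Fintype (Heis σ)] {q : ℕ} (hq : 1 < q) (hs : ∀ x, σ x = x ^ q) (hF : Nat.card F = q ^ 2)
    {L : F →+ ZMod 2} {a₀ : F} (ha₀ : L a₀ ≠ 0) (β : Heis σ ≃* Heis σ) :
    ∃ p : F ≃ F, p 0 = 0 ∧ ∀ (f : Heis σ → ℂ) (c : F),
      classInner (fun a => f (β a)) (fun a => (lin L c a : ℂ)) = classInner f (fun a => (lin L (p c) a : ℂ)) := by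
  have h1 : ∀ c : F, ∃ c' : F, lin L c' = (lin L c : Heis σ →* ℂˣ).comp β.symm.toMonoidHom := fun c =>
    lin_surjective hq hs hF ha₀ _
  choose p hp using h1
  have hinj : Function.Injective p := by
    intro c d h
    apply lin_injective (σ := σ) ha₀ (exists_heis_a hq hs hF)
    have h2 := hp c
    rw [h, hp d] at h2
    ext a
    have h3 := DFunLike.congr_fun h2 (β a)
    change lin L d (β.symm (β a)) = lin L c (β.symm (β a)) at h3
    rw [MulEquiv.symm_apply_apply] at h3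
    rw [← h3]
  have h00 : (lin L 0 : Heis σ →* ℂˣ) = 1 := by
    ext a
    rw [lin_apply, zero_mul, map_zero]
    simp [sg]
  refine ⟨Equiv.ofBijective p (Finite.injective_iff_bijective.1 hinj), ?_, fun f c => ?_⟩
  · change p 0 = 0
    apply lin_injective (σ := σ) ha₀ (exists_heis_a hq hs hF)
    change lin L (p 0) = lin L 0
    rw [hp 0, h00]
    rfl
  · change _ = classInner f (fun a => (lin L (p c) a : ℂ))
    rw [← inner_bij β β.bijective f (fun a => (lin L (p c) a : ℂ))]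
    congr 1
    funext a
    change ((lin L c a : ℂˣ) : ℂ) = (lin L (p c) (β a) : ℂˣ)
    rw [hp c]
    change ((lin L c a : ℂˣ) : ℂ) = (lin L c (β.symm (β a)) : ℂˣ)
    rw [MulEquiv.symm_apply_apply]

open Cfsg.Agent.H636.Gow Cfsg.Agent.H710.Gow in
theorem row2_mod_two [Finite F] {n : ℕ} (hn : 1 ≤ n) (hs : ∀ x, σ x = x ^ (2 ^ n)) (hF : Nat.card F = (2 ^ n) ^ 2)
    (hmod : 2 ^ n % 3 = 2) : Row2 (Cfsg.PSU 3 F (2 ^ n)) := by
  classical
  have hq : 1 < 2 ^ n := Nat.one_lt_two_pow (by omega)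
  have := Fintype.ofFinite F
  have := Fintype.ofFinite (Heis σ)
  have := Fintype.ofFinite (SUJ σ)
  obtain ⟨π, hπ, hker⟩ := exists_pi (F := F) (σ := σ) (by omega) hs hF
  have hfin : Finite (Cfsg.PSU 3 F (2 ^ n)) := Finite.of_surjective π hπ
  have := Fintype.ofFinite (Cfsg.PSU 3 F (2 ^ n))
  obtain ⟨x₀, hx₀⟩ := HermHeis.exists_heis_a (σ := σ) hq hs hF 1
  have hx : ∃ x : Heis σ, x.a ≠ 0 := ⟨x₀, by rw [hx₀]; exact one_ne_zero⟩
  have hkB : π.ker ≤ borel σ := by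
    intro g hg
    exact center_le_borel hx ((hker g).mp hg)
  have hinj : Function.Injective (π.comp (emb σ)) := by
    rw [injective_iff_map_eq_one]
    intro x h
    exact eq_one_of_mem_center ((hker _).mp h)
  have hSr : (π.comp (emb σ)).range = (emb σ).range.map π := by
    rw [MonoidHom.range_comp]
  have hD : Data ((borel σ).map π) (π.comp (emb σ)).range (π (wel σ)) := by
    rw [hSr]
    exact data_map data_SUJ π hπ hkB
  obtain ⟨L, a₀, hL, ha₀⟩ := exists_L (σ := σ) (card_fixed (σ := σ) hq hs hF).2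
  obtain ⟨γ, hγ, hcov, hnc⟩ := exists_gamma (σ := σ) hn hs hF hmod
  have hγ0 : γ ≠ 0 := left_ne_zero_of_mul_eq_one hγ
  have hsur := exists_heis_a (σ := σ) hq hs hF
  -- the action of the Borel subgroup on the linear characters
  have hact : ∀ x ∈ (borel σ).map π, ∀ f : Heis σ →* Heis σ,
      (∀ a, x⁻¹ * (π.comp (emb σ)) a * x = (π.comp (emb σ)) (f a)) →
      ∃ (u : Heis σ) (α : F) (h0 : α ≠ 0), x = π (emb σ u * tel σ α h0) ∧
        ∀ a, a.a = α ^ 2 / σ α * (f a).a := by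
    rintro _ ⟨h, hh, rfl⟩ f hf
    obtain ⟨_, ⟨u, rfl⟩, t, ht, rfl⟩ := exists_decomp data_SUJ hT hh
    obtain ⟨α, h0, rfl⟩ := eq_tel ht
    refine ⟨u, α, h0, rfl, fun a => ?_⟩
    have e1 : (π.comp (emb σ)) (u⁻¹ * a * u) = (π.comp (emb σ)) (scal α h0 (f a)) := by
      have e2 : emb σ (scal α h0 (f a)) = tel σ α h0 * emb σ (f a) * (tel σ α h0)⁻¹ := by
        rw [tel_mul, mul_inv_cancel_right]
      have e3 := hf a
      simp only [MonoidHom.comp_apply] at e3 ⊢
      rw [e2, map_mul π, map_mul π, ← e3, map_mul, map_mul, map_mul, map_mul, map_inv, map_inv, map_inv,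
        map_mul]
      group
    have e4 := congrArg Heis.a (hinj e1)
    have e5 : (u⁻¹ * a * u).a = a.a := by
      change u.a + a.a + u.a = a.a
      linear_combination CharTwo.add_self_eq_zero u.a
    rw [← e5, e4]
    rfl
  have hstab : ∀ c : F, c ≠ 0 → ∀ x ∈ (borel σ).map π, ∀ f : Heis σ →* Heis σ,
      (∀ a, x⁻¹ * (π.comp (emb σ)) a * x = (π.comp (emb σ)) (f a)) →
      (lin L c : Heis σ →* ℂˣ).comp f = lin L c → x ∈ (π.comp (emb σ)).range := by
    intro c hc x hxB f hf hfix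
    obtain ⟨u, α, h0, rfl, hk⟩ := hact x hxB f hf
    have h1 : σ α ≠ 0 := (map_ne_zero σ).mpr h0
    have hk0 : α ^ 2 / σ α ≠ 0 := div_ne_zero (pow_ne_zero 2 h0) h1
    have e1 : c * (α ^ 2 / σ α)⁻¹ = c := by
      apply lin_inj (σ := σ) ha₀ hsur
      intro a
      have e2 := DFunLike.congr_fun hfix a
      rw [MonoidHom.comp_apply, lin_eq_iff] at e2
      have e3 : (f a).a = (α ^ 2 / σ α)⁻¹ * a.a := by
        rw [hk a, inv_mul_cancel_left₀ hk0]
      rw [mul_assoc, ← e3, e2]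
    have e4 : (α ^ 2 / σ α)⁻¹ = 1 := mul_left_cancel₀ hc (e1.trans (mul_one c).symm)
    have e5 : α ^ 2 / σ α = 1 := by rw [inv_eq_one] at e4; exact e4
    have e6 : π (tel σ α h0) = 1 := (hker _).2 (tel_mem_center e5)
    rw [map_mul, e6, mul_one]
    exact ⟨u, rfl⟩
  have hdist : ∀ x ∈ (borel σ).map π, ∀ f : Heis σ →* Heis σ,
      (∀ a, x⁻¹ * (π.comp (emb σ)) a * x = (π.comp (emb σ)) (f a)) → (lin L 1 : Heis σ →* ℂˣ).comp f ≠ lin L γ := by
    intro x hxB f hf hfix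
    obtain ⟨u, α, h0, rfl, hk⟩ := hact x hxB f hf
    have h1 : σ α ≠ 0 := (map_ne_zero σ).mpr h0
    have hk0 : α ^ 2 / σ α ≠ 0 := div_ne_zero (pow_ne_zero 2 h0) h1
    obtain ⟨β, hβ⟩ := cube_of_tel (σ := σ) hs hmod h0
    apply hnc β
    rw [← hβ]
    apply lin_inj (σ := σ) ha₀ hsur
    intro a
    have e2 := DFunLike.congr_fun hfix a
    rw [MonoidHom.comp_apply, lin_eq_iff, one_mul] at e2
    have e3 : (f a).a = (α ^ 2 / σ α)⁻¹ * a.a := by
      rw [hk a, inv_mul_cancel_left₀ hk0]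
    rw [← e2, e3]
  obtain ⟨μ, hμ, hμp, hμr⟩ := Cfsg.Agent.H710.TIPair.exists_pair (ψ₁ := lin L 1) (ψ₂ := lin L γ) hinj hD
    (hstab 1 one_ne_zero) (hstab γ hγ0) hdist
  -- the diagonal automorphism
  obtain ⟨δ, hδ⟩ : ∃ δ : Cfsg.PSU 3 F (2 ^ n) →* Cfsg.PSU 3 F (2 ^ n), ∀ x, δ (π x) = π (cj γ hγ x) := by
    have hk : π.ker ≤ (π.comp (cj γ hγ)).ker := by
      intro x hx
      rw [MonoidHom.mem_ker] at hx ⊢
      rw [MonoidHom.comp_apply, hker]
      rw [hker, Subgroup.mem_center_iff] at hx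
      rw [Subgroup.mem_center_iff]
      intro g
      obtain ⟨g', rfl⟩ := (cj_bijective γ hγ).2 g
      rw [← map_mul, ← map_mul, hx g']
    refine ⟨π.liftOfSurjective hπ ⟨π.comp (cj γ hγ), hk⟩, fun x => ?_⟩
    exact MonoidHom.liftOfRightInverse_comp_apply _ _ _ ⟨π.comp (cj γ hγ), hk⟩ x
  have hδs : Function.Surjective δ := by
    intro y
    obtain ⟨x, rfl⟩ := hπ y
    obtain ⟨x', rfl⟩ := (cj_bijective γ hγ).2 x
    exact ⟨π x', hδ x'⟩
  -- multiplicities
  have hMex : ∀ (χ : IrrCharacter (Cfsg.PSU 3 F (2 ^ n))) (c : F), ∃ m : ℕ, mult L ((χ : _ → ℂ) ∘ π) c = m :=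
    fun χ c => classInner_isNat (isCharacter_comp (emb σ) (isIrr_isCharacter (isIrr_comp π hπ χ.2)))
      (Characters.Linear.isCharacter_hom _)
  choose M hM using hMex
  let dd : IrrCharacter (Cfsg.PSU 3 F (2 ^ n)) → IrrCharacter (Cfsg.PSU 3 F (2 ^ n)) := fun χ =>
    ⟨(χ : _ → ℂ) ∘ δ, isIrr_comp δ hδs χ.2⟩
  have hdd : ∀ χ c, M (dd χ) c = M χ (c * γ) := by
    intro χ c
    have e1 : ((dd χ : _ → ℂ) ∘ π) = ((χ : _ → ℂ) ∘ π) ∘ cj γ hγ := by
      funext x
      change (χ : _ → ℂ) (δ (π x)) = (χ : _ → ℂ) (π (cj γ hγ x))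
      rw [hδ]
    have e2 : (M (dd χ) c : ℂ) = M χ (c * γ) := by
      rw [← hM, ← hM, e1, mult_cj]
    exact_mod_cast e2
  have hddinj : ∀ χ χ', dd χ = dd χ' → χ = χ' := by
    intro χ χ' h
    apply Subtype.ext
    funext x
    obtain ⟨y, rfl⟩ := hδs x
    exact congrFun (congrArg Subtype.val h) y
  have hcube : ∀ χ (c β : F), β ≠ 0 → M χ (c * β ^ 3) = M χ c := by
    intro χ c β hβ
    have := mult_cube L (isIrr_isClassFunction (isIrr_comp π hπ χ.2)) β hβ c
    rw [hM, hM] at this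
    exact_mod_cast this
  have hg3 : ∀ χ, M χ (γ * γ * γ) = M χ 1 := by
    intro χ
    rw [← hcube χ 1 γ hγ0]
    congr 1
    ring
  have hg4 : ∀ χ, M χ (γ * γ * γ * γ) = M χ γ := by
    intro χ
    rw [← hcube χ γ γ hγ0]
    congr 1
    ring
  have huniq : ∀ χ χ', M χ 1 = M χ γ + 1 → M χ' 1 = M χ' γ + 1 → χ = χ' := by
    intro χ χ' h h'
    apply Subtype.ext
    refine pair_unique hinj hD (hstab 1 one_ne_zero) (hstab γ hγ0) hdist χ.2 χ'.2 ?_ ?_
    · have e1 : mult L ((χ : _ → ℂ) ∘ π) 1 = mult L ((χ : _ → ℂ) ∘ π) γ + 1 := by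
        rw [hM, hM, h]
        push_cast
        rfl
      exact e1
    · have e1 : mult L ((χ' : _ → ℂ) ∘ π) 1 = mult L ((χ' : _ → ℂ) ∘ π) γ + 1 := by
        rw [hM, hM, h']
        push_cast
        rfl
      exact e1
  let μ0 : IrrCharacter (Cfsg.PSU 3 F (2 ^ n)) := ⟨μ, hμ⟩
  have hpair : M μ0 1 = M μ0 γ + 1 := by
    have e : mult L (μ ∘ π) 1 = mult L (μ ∘ π) γ + 1 := hμp
    have e1 := hM μ0 1
    have e2 := hM μ0 γ
    change mult L (μ ∘ π) 1 = _ at e1
    change mult L (μ ∘ π) γ = _ at e2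
    rw [e1, e2] at e
    exact_mod_cast e
  have hχ : IsIrrCharacter (SUJ σ) (μ ∘ π) := isIrr_comp π hπ hμ
  obtain ⟨hm1, hmg, hmg2⟩ := mult_orbits hn hs hF hL ha₀ hχ (hM μ0) hγ hpair
  have hm0 := mult_zero hn hs hF hL ha₀ hχ (hM μ0) hγ hpair
  obtain ⟨d, hd0, hd⟩ := isIrr_apply_one hμ
  have hdχ : (μ ∘ π) 1 = d := by rw [Function.comp_apply, map_one, hd]
  have hodd := degree_odd hn hs hF hL ha₀ hχ (hM μ0) hγ hpair hcov hnc hdχ
  have hfix : ∀ (τ : ℂ ≃+* ℂ) (g), τ (μ g) = μ g := by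
    intro τ
    have key : ∀ (c : F) (a : Heis σ), τ (lin L c a : ℂˣ) = (lin L c a : ℂˣ) := by
      intro c a
      rw [lin_apply, sg]
      split_ifs <;> simp
    exact hμr τ (key 1) (key γ)
  have hrat : ∀ g, ∃ q : ℚ, μ g = q := by
    intro g
    apply Characters.GaloisBasic.exists_rat_of_forall_ringEquiv
    · exact (Characters.GaloisBasic.isIntegral_apply (isIrr_isCharacter hμ) g).tower_top
    · intro τ
      exact hfix τ g
  -- the three characters
  rw [pow_two] at hmg2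
  have hT : ∀ χ, M χ 0 = 0 → M χ 1 + M χ γ + M χ (γ * γ) = 1 → χ = μ0 ∨ χ = dd μ0 ∨ χ = dd (dd μ0) := by
    intro χ h0 h1
    rcases Nat.eq_zero_or_pos (M χ 1) with c1 | c1
    · rcases Nat.eq_zero_or_pos (M χ γ) with c2 | c2
      · right; left
        apply hddinj
        apply hddinj
        apply huniq
        · rw [hdd, hdd, hdd, hdd, one_mul, hg3]
          omega
        · rw [hdd, hdd, hdd, hdd, hdd, hdd, one_mul, hg3, hg4]
          omega
      · right; right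
        apply hddinj
        apply huniq
        · rw [hdd, hdd, one_mul]
          omega
        · rw [hdd, hdd, hdd, hdd, hdd, hdd, one_mul, hg3, hg4]
          omega
    · left
      apply huniq _ _ _ hpair
      omega
  have hQ : ∀ χ, M χ 0 = 0 → M χ 1 + M χ γ + M χ (γ * γ) = 1 →
      M (dd χ) 0 = 0 ∧ M (dd χ) 1 + M (dd χ) γ + M (dd χ) (γ * γ) = 1 := by
    intro χ h0 h1
    rw [hdd, hdd, hdd, hdd, zero_mul, one_mul, hg3]
    exact ⟨h0, by omega⟩
  have hQ0 : M μ0 0 = 0 ∧ M μ0 1 + M μ0 γ + M μ0 (γ * γ) = 1 := ⟨hm0, by omega⟩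
  have hQ1 := hQ _ hQ0.1 hQ0.2
  have hQ2 := hQ _ hQ1.1 hQ1.2
  let T : Finset (IrrCharacter (Cfsg.PSU 3 F (2 ^ n))) := {μ0, dd μ0, dd (dd μ0)}
  have hTm : ∀ χ, χ ∈ T ↔ M χ 0 = 0 ∧ M χ 1 + M χ γ + M χ (γ * γ) = 1 := by
    intro χ
    constructor
    · intro h
      rcases Finset.mem_insert.1 h with h | h
      · rw [h]; exact hQ0
      · rcases Finset.mem_insert.1 h with h | h
        · rw [h]; exact hQ1
        · rw [Finset.mem_singleton.1 h]; exact hQ2
    · rintro ⟨h0, h1⟩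
      rcases hT χ h0 h1 with h | h | h
      · rw [h]; exact Finset.mem_insert_self _ _
      · rw [h]; exact Finset.mem_insert_of_mem (Finset.mem_insert_self _ _)
      · rw [h]; exact Finset.mem_insert_of_mem (Finset.mem_insert_of_mem (Finset.mem_singleton_self _))
  have hTc : T.card = 3 := by
    apply Finset.card_eq_three.2
    refine ⟨μ0, dd μ0, dd (dd μ0), ?_, ?_, ?_, rfl⟩
    · intro h
      have e := hdd μ0 1
      rw [← h, one_mul] at e
      omega
    · intro h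
      have e := hdd (dd μ0) 1
      rw [← h, one_mul, hdd] at e
      omega
    · intro h
      have e := hdd (dd μ0) γ
      rw [← h, hdd, hdd, hg3] at e
      omega
  have hsum : ∀ χ, M χ 0 = 0 → 3 * ∑ c, M χ c = (Fintype.card F - 1) * (M χ 1 + M χ γ + M χ (γ * γ)) := by
    intro χ h0
    have := sum_mult hγ0 (hcube χ) hcov
    rw [h0, pow_two] at this
    omega
  have hcF : 0 < Fintype.card F - 1 := by
    have := Fintype.one_lt_card (α := F)
    omega
  -- automorphisms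
  have h2 : IsPGroup 2 (Heis σ) :=
    IsPGroup.of_card (n := n * 3) (by rw [card_heis hq hs hF, ← pow_mul])
  obtain ⟨P, hP⟩ := exists_sylow hx h2
  have hPS : ((P.mapSurjective hπ : Sylow 2 _) : Subgroup (Cfsg.PSU 3 F (2 ^ n))) = (π.comp (emb σ)).range := by
    rw [hSr, ← hP]
    rfl
  have hst : ∀ (b : MulAut (Cfsg.PSU 3 F (2 ^ n))), ∀ χ ∈ T, tw b χ ∈ T := by
    intro b χ hχ
    rw [hTm] at hχ ⊢
    obtain ⟨β, hβ⟩ := exists_beta hinj (P.mapSurjective hπ) hPS b⁻¹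
    obtain ⟨p, hp0, hp⟩ := exists_perm (σ := σ) hq hs hF ha₀ β
    have key : ∀ c, M (tw b χ) c = M χ (p c) := by
      intro c
      have e1 : (M (tw b χ) c : ℂ) = M χ (p c) := by
        rw [← hM, ← hM]
        have e2 := hp (((χ : _ → ℂ) ∘ π) ∘ emb σ) c
        rw [mult, mult, ← e2]
        congr 1
        funext a
        exact hβ _ (isIrr_isClassFunction χ.2) a
      exact_mod_cast e1
    have e0 : M (tw b χ) 0 = 0 := by rw [key, hp0, hχ.1]
    refine ⟨e0, ?_⟩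
    have e1 := hsum _ e0
    have e2 := hsum _ hχ.1
    have e3 : ∑ c, M (tw b χ) c = ∑ c, M χ c := by
      rw [Finset.sum_congr rfl fun c _ => key c]
      exact Fintype.sum_equiv p _ _ fun c => rfl
    rw [e3, e2, hχ.2] at e1
    exact (Nat.eq_of_mul_eq_mul_left hcF e1).symm
  intro B hB
  let _ := twAct (S := Cfsg.PSU 3 F (2 ^ n))
  obtain ⟨χ, hχT, hf⟩ := exists_fixed_of_odd (B := B) hB T (by rw [hTc]; decide) (fun b χ hχ => hst b.1 χ hχ)
  have hall : ∀ χ ∈ T, ∃ f : Cfsg.PSU 3 F (2 ^ n) → Cfsg.PSU 3 F (2 ^ n), f 1 = 1 ∧ ∀ g, (χ : _ → ℂ) g = μ (f g) := by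
    intro χ h
    rcases Finset.mem_insert.1 h with h | h
    · exact ⟨id, rfl, fun g => by rw [h]; rfl⟩
    · rcases Finset.mem_insert.1 h with h | h
      · exact ⟨δ, map_one δ, fun g => by rw [h]; rfl⟩
      · exact ⟨fun g => δ (δ g), by change δ (δ 1) = 1; rw [map_one, map_one], fun g => by rw [Finset.mem_singleton.1 h]; rfl⟩
  obtain ⟨f, hf1, hf2⟩ := hall χ hχT
  have hRI : RatInv (Cfsg.PSU 3 F (2 ^ n)) B := by
    refine ⟨χ, χ.2, ?_, ⟨d, hodd, ?_⟩, fun g => ?_, fun b hb => mem_stab_iff_tw.1 (hf ⟨b, hb⟩)⟩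
    · intro h1
      have e0 := ((hTm χ).1 hχT).1
      have e1 := hM χ 0
      rw [e0, mult, h1] at e1
      have e2 : ((1 : Cfsg.PSU 3 F (2 ^ n) → ℂ) ∘ π) ∘ emb σ = (1 : Heis σ → ℂ) := rfl
      have e3 : (fun a : Heis σ => ((lin L 0 a : ℂˣ) : ℂ)) = (1 : Heis σ → ℂ) := by
        funext a
        rw [lin_apply, zero_mul, map_zero]
        simp [sg]
      rw [e2, e3, classInner_irr_self isIrr_one] at e1
      norm_num at e1
    · rw [hf2, hf1, hd]
    · rw [hf2]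
      exact hrat _
  exact hRI.exists_irr

end PSU

/-- **S4829, `p = 2`: the groups `PSU(3, q)`, `q` even** -/
theorem row2_psu_three (F : Type*) [Field F] [Fintype F] [CharP F 2] (q : ℕ) (hF : Fintype.card F = q ^ 2) :
    Row2 (Cfsg.PSU 3 F q) := by
  obtain ⟨k, hk, hk2⟩ := FiniteField.card F 2
  have h1 : q ^ 2 = 2 ^ (k : ℕ) := by rw [← hF, hk2]
  have h2 : q ∣ 2 ^ (k : ℕ) := by rw [← h1]; exact dvd_pow_self q (by norm_num)
  obtain ⟨n, -, rfl⟩ := (Nat.dvd_prime_pow Nat.prime_two).1 h2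
  have hn : 1 ≤ n := by
    rcases Nat.eq_zero_or_pos n with rfl | h
    · exfalso
      have := Fintype.one_lt_card (α := F)
      rw [hF] at this
      norm_num at this
    · exact h
  have hF' : Nat.card F = (2 ^ n) ^ 2 := by rw [Nat.card_eq_fintype_card, hF]
  have hs : ∀ x, iterateFrobenius F 2 n x = x ^ (2 ^ n) := fun x => iterateFrobenius_def 2 n x
  have hσ : Fact (∀ x, iterateFrobenius F 2 n (iterateFrobenius F 2 n x) = x) := ⟨by
    intro x
    rw [hs, hs, ← pow_mul, ← pow_two, ← hF]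
    exact FiniteField.pow_card x⟩
  have hmod : 2 ^ n % 3 = 1 ∨ 2 ^ n % 3 = 2 := by
    have h3 : ¬ 3 ∣ 2 ^ n := fun h => by
      have := Nat.Prime.dvd_of_dvd_pow Nat.prime_three h
      norm_num at this
    omega
  rcases hmod with h | h
  · exact row2_one (σ := iterateFrobenius F 2 n) hn hs hF' h
  · exact row2_mod_two (σ := iterateFrobenius F 2 n) hn hs hF' h

end Cfsg.Agent.H61.R2
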